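import Cfsg.Agent.Lib.Helper63.LBMEL
import Cfsg.Agent.Lib.Helper63.LBMES2

set_option autoImplicit false
set_option linter.unusedSectionVars false

/-! # S2733 farm (helper80), piece [K4]: rigidity, type I (core, with [SC] as a hypothesis) -/

namespace Cfsg.Agent.Lib.Helper43.LBM

open Matrix QuadraticMap Module Cfsg.Agent.Lib.Helper13.OOut Cfsg.Agent.Lib.Helper43.PA
  Cfsg.Agent.Lib.Helper43.PO Cfsg.Agent.Lib.Helper44 Cfsg.Agent.Lib.Helper80.LBM
  Cfsg.Agent.Lib.Helper63.LBM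

universe u

variable {F : Type u} [Field F] {ι : Type} [Fintype ι] [DecidableEq ι]

lemma orth_e (h2 : (2 : F) ≠ 0) (Q : QuadraticForm F (ι → F)) (g : Matrix ι ι F)
    (hg : ∀ v, Q (g *ᵥ v) = Q v) (e : F) (he : e = 1 ∨ e = -1) (u w : ι → F)
    (hu : g *ᵥ u = e • u) (hw : g *ᵥ w = (-e) • w) : polar Q u w = 0 := by
  rcases he with rfl | rfl
  · exact eig_orth h2 Q g hg u w (by simpa using hu) (by simpa using hw)
  · rw [polar_comm]
    exact eig_orth h2 Q g hg w u (by simpa using hw) (by simpa using hu)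

lemma decomp_e (h2 : (2 : F) ≠ 0) (g : Matrix ι ι F) (hgg : g * g = 1) (e : F)
    (he : e = 1 ∨ e = -1) (v : ι → F) :
    ∃ x y : ι → F, g *ᵥ x = e • x ∧ g *ᵥ y = (-e) • y ∧ v = x + y := by
  obtain ⟨a, b, ha, hb, hv⟩ := eig_decomp h2 g hgg v
  rcases he with rfl | rfl
  · exact ⟨a, b, by simpa using ha, by simpa using hb, hv⟩
  · exact ⟨b, a, by simpa using hb, by simpa using ha, by rw [hv, add_comm]⟩

/-- a vector of an eigenspace orthogonal to the eigenspace is zero. -/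
lemma eig_sep (h2 : (2 : F) ≠ 0) (Q : QuadraticForm F (ι → F))
    (hQ : (polarBilin Q).Nondegenerate) (g : Matrix ι ι F) (hg : ∀ v, Q (g *ᵥ v) = Q v)
    (hgg : g * g = 1) (e : F) (he : e = 1 ∨ e = -1) (x : ι → F) (hx : g *ᵥ x = e • x)
    (h : ∀ w, g *ᵥ w = e • w → polar Q x w = 0) : x = 0 := by
  apply hQ.1
  intro v
  obtain ⟨a, b, ha, hb, rfl⟩ := decomp_e h2 g hgg e he v
  rw [polarBilin_apply_apply, polar_add_right, h a ha, orth_e h2 Q g hg e he x b hx hb, add_zero]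

lemma exists_nonsing (h2 : (2 : F) ≠ 0) (Q : QuadraticForm F (ι → F))
    (hQ : (polarBilin Q).Nondegenerate) (g : Matrix ι ι F) (hg : ∀ v, Q (g *ᵥ v) = Q v)
    (hgg : g * g = 1) (e : F) (he : e = 1 ∨ e = -1)
    (hd : 1 ≤ finrank F (End.eigenspace (Matrix.mulVecLin g) e)) :
    ∃ w, g *ᵥ w = e • w ∧ Q w ≠ 0 := by
  by_contra hcon
  push Not at hcon
  have hnt : Nontrivial (End.eigenspace (Matrix.mulVecLin g) e) :=
    Module.nontrivial_of_finrank_pos (R := F) (by omega)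
  obtain ⟨x, hx⟩ := exists_ne (0 : End.eigenspace (Matrix.mulVecLin g) e)
  apply hx
  apply Subtype.ext
  have hx1 : g *ᵥ (x : ι → F) = e • (x : ι → F) := End.mem_eigenspace_iff.1 x.2
  apply eig_sep h2 Q hQ g hg hgg e he _ hx1
  intro w hw
  unfold polar
  rw [hcon _ hx1, hcon _ hw, hcon (x + w) (by rw [mulVec_add, hx1, hw, smul_add])]
  simp

theorem hc_I_main (h2 : (2 : F) ≠ 0) (Q : QuadraticForm F (ι → F))
    (hQ : (polarBilin Q).Nondegenerate) (g : Matrix ι ι F) (hg : ∀ v, Q (g *ᵥ v) = Q v)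
    (hgg : g * g = 1) (z : SG F ι) (hzG : z ∈ Gam ⇑Q)
    (hSC : ∀ e : F, (e = 1 ∨ e = -1) → 3 ≤ finrank F (End.eigenspace (Matrix.mulVecLin g) e) →
      ∃ α : F, ∀ w, g *ᵥ w = e • w → act z w = α • w)
    (e : F) (he : e = 1 ∨ e = -1) (hd : 3 ≤ finrank F (End.eigenspace (Matrix.mulVecLin g) e))
    (hodd : Odd (finrank F (End.eigenspace (Matrix.mulVecLin g) (-e)))) :
    z.right = 1 ∧ ∃ c : F, (z.left : Matrix ι ι F) * (z.left : Matrix ι ι F)
      = c • (1 : Matrix ι ι F) := by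
  have he' : -e = 1 ∨ -e = -1 := by
    rcases he with rfl | rfl
    · right; rfl
    · left; simp
  obtain ⟨α, hα⟩ := hSC e he hd
  obtain ⟨w₀, hw₀, hQw₀⟩ := exists_nonsing h2 Q hQ g hg hgg e he (by omega)
  obtain ⟨cz, hcz⟩ := mem_Gam.1 hzG
  have hw₀0 : w₀ ≠ 0 := by
    rintro rfl
    simp at hQw₀
  have hα0 : α ≠ 0 := by
    rintro rfl
    have h1 := hcz w₀
    rw [hα w₀ hw₀, zero_smul, map_zero] at h1
    rcases mul_eq_zero.1 h1.symm with h | h
    · exact cz.ne_zero h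
    · exact hQw₀ ((map_eq_zero _).1 h)
  have hσ : z.right = 1 := by
    ext c
    have h1 := act_smul z c w₀
    rw [hα (c • w₀) (by rw [mulVec_smul, hw₀, smul_comm]), hα w₀ hw₀, smul_smul, smul_smul] at h1
    have h3 : (α * c - z.right c * α) • w₀ = 0 := by rw [sub_smul, h1, sub_self]
    rcases smul_eq_zero.1 h3 with h | h
    · have h4 : α * (c - z.right c) = 0 := by linear_combination h
      rcases mul_eq_zero.1 h4 with h5 | h5
      · exact absurd h5 hα0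
      · exact (sub_eq_zero.1 h5).symm
    · exact absurd h hw₀0
  refine ⟨hσ, ?_⟩
  set L : Matrix ι ι F := (z.left : Matrix ι ι F) with hL
  have hact : ∀ v, act z v = L *ᵥ v := by
    intro v
    rw [act_def, hσ]
    rfl
  have hQL : ∀ v, Q (L *ᵥ v) = cz * Q v := by
    intro v
    rw [← hact, hcz, hσ]
    rfl
  have hpL : ∀ x y, polar Q (L *ᵥ x) (L *ᵥ y) = cz * polar Q x y := by
    intro x y
    unfold polar
    rw [← mulVec_add, hQL, hQL, hQL]
    ring
  have hαc : α * α = cz := by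
    have h1 := hQL w₀
    rw [← hact, hα w₀ hw₀, QuadraticMap.map_smul, smul_eq_mul] at h1
    exact mul_right_cancel₀ hQw₀ h1
  obtain ⟨w₁, hw₁, hQw₁⟩ := exists_nonsing h2 Q hQ g hg hgg (-e) he' hodd.pos
  obtain ⟨β, hβ⟩ : ∃ β : F, ∀ w, g *ᵥ w = (-e) • w → L *ᵥ w = β • w := by
    by_cases hd' : 3 ≤ finrank F (End.eigenspace (Matrix.mulVecLin g) (-e))
    · obtain ⟨β, hβ⟩ := hSC (-e) he' hd'
      exact ⟨β, fun w hw => by rw [← hact, hβ w hw]⟩
    · have hone : finrank F (End.eigenspace (Matrix.mulVecLin g) (-e)) = 1 := by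
        obtain ⟨k, hk⟩ := hodd
        omega
      obtain ⟨b, hb0, hb⟩ := finrank_eq_one_iff'.1 hone
      have hbe : g *ᵥ (b : ι → F) = (-e) • (b : ι → F) := End.mem_eigenspace_iff.1 b.2
      have hLmem : ∀ w, g *ᵥ w = (-e) • w → g *ᵥ (L *ᵥ w) = (-e) • (L *ᵥ w) := by
        intro w hw
        obtain ⟨x, y, hx, hy, hxy⟩ := decomp_e h2 g hgg e he (L *ᵥ w)
        have hx0 : x = 0 := by
          apply eig_sep h2 Q hQ g hg hgg e he x hx
          intro u hu
          have h1 : polar Q (L *ᵥ w) (L *ᵥ u) = 0 := by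
            rw [hpL, polar_comm, orth_e h2 Q g hg e he u w hu hw, mul_zero]
          rw [← hact u, hα u hu, polar_smul_right, hxy, polar_add_left,
            polar_comm Q y u, orth_e h2 Q g hg e he u y hu hy, add_zero, smul_eq_mul] at h1
          exact (mul_eq_zero.1 h1).resolve_left hα0
        rw [hxy, hx0, zero_add, hy]
      obtain ⟨β, hβ⟩ := hb ⟨L *ᵥ (b : ι → F), End.mem_eigenspace_iff.2 (hLmem _ hbe)⟩
      have hβ' : β • (b : ι → F) = L *ᵥ (b : ι → F) := congrArg Subtype.val hβ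
      refine ⟨β, fun w hw => ?_⟩
      obtain ⟨t, ht⟩ := hb ⟨w, End.mem_eigenspace_iff.2 hw⟩
      have ht' : t • (b : ι → F) = w := congrArg Subtype.val ht
      rw [← ht', mulVec_smul, ← hβ', smul_comm]
  have hβc : β * β = cz := by
    have h1 := hQL w₁
    rw [hβ w₁ hw₁, QuadraticMap.map_smul, smul_eq_mul] at h1
    exact mul_right_cancel₀ hQw₁ h1
  refine ⟨cz, ?_⟩
  apply matrix_ext_mulVec
  intro v
  obtain ⟨x, y, hx, hy, rfl⟩ := decomp_e h2 g hgg e he v
  rw [← mulVec_mulVec, mulVec_add, ← hact x, hα x hx, hβ y hy, mulVec_add, mulVec_smul, mulVec_smul,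
    ← hact x, hα x hx, hβ y hy, smul_smul, smul_smul, hαc, hβc, smul_mulVec, one_mulVec, smul_add]

/-- [K4] core: [SC] as a hypothesis. -/
theorem hc_I_core (h2 : (2 : F) ≠ 0) (Q : QuadraticForm F (ι → F))
    (hQ : (polarBilin Q).Nondegenerate) (hn : 8 ≤ Fintype.card ι) (hev : Even (Fintype.card ι))
    (g : GL ι F) (hg : ∀ v, Q ((g : Matrix ι ι F) *ᵥ v) = Q v) (hgg : g * g = 1)
    (hdet : (g : Matrix ι ι F).det = -1) (z : SG F ι) (hzG : z ∈ Gam ⇑Q)
    (hSC : ∀ e : F, (e = 1 ∨ e = -1) →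
      3 ≤ finrank F (End.eigenspace (Matrix.mulVecLin (g : Matrix ι ι F)) e) →
      ∃ α : F, ∀ w, (g : Matrix ι ι F) *ᵥ w = e • w → act z w = α • w) :
    z.right = 1 ∧ ∃ c : F, (z.left : Matrix ι ι F) * (z.left : Matrix ι ι F)
      = c • (1 : Matrix ι ι F) := by
  have hgg' : (g : Matrix ι ι F) * (g : Matrix ι ι F) = 1 := by
    rw [← Units.val_mul, hgg, Units.val_one]
  obtain ⟨o1, o2, hs⟩ := eig_odd h2 (g : Matrix ι ι F) hgg' hdet hev
  by_cases h3 : 3 ≤ finrank F (End.eigenspace (Matrix.mulVecLin (g : Matrix ι ι F)) 1)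
  · exact hc_I_main h2 Q hQ _ hg hgg' z hzG hSC 1 (Or.inl rfl) h3 o2
  · exact hc_I_main h2 Q hQ _ hg hgg' z hzG hSC (-1) (Or.inr rfl) (by omega) (by rwa [neg_neg])

end Cfsg.Agent.Lib.Helper43.LBM
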