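import Cfsg.Agent.Lib.Helper43.LB.K4
import Cfsg.Agent.Lib.Helper63.LBMSC

set_option autoImplicit false
set_option linter.unusedSectionVars false

/-! # S2733 farm (helper80), piece [K4]: rigidity, type I -/

namespace Cfsg.Agent.Lib.Helper43.LBM

open Matrix QuadraticMap Module Cfsg.Agent.Lib.Helper13.OOut Cfsg.Agent.Lib.Helper43.PA
  Cfsg.Agent.Lib.Helper43.PO Cfsg.Agent.Lib.Helper44 Cfsg.Agent.Lib.Helper80.LBM
  Cfsg.Agent.Lib.Helper63.LBM

universe u

variable {F : Type u} [Field F] {ι : Type} [Fintype ι] [DecidableEq ι]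

/-- [K4] rigidity, type I. -/
theorem hc_I [Fintype F] (h2 : (2 : F) ≠ 0) (Q : QuadraticForm F (ι → F))
    (hQ : (polarBilin Q).Nondegenerate) (hn : 8 ≤ Fintype.card ι) (hev : Even (Fintype.card ι))
    (g : GL ι F) (hg : ∀ v, Q ((g : Matrix ι ι F) *ᵥ v) = Q v) (hgg : g * g = 1)
    (hdet : (g : Matrix ι ι F).det = -1) (z : SG F ι) (hzG : z ∈ Gam ⇑Q)
    (hz : CommSq ⇑Q g z) :
    z.right = 1 ∧ ∃ c : F, (z.left : Matrix ι ι F) * (z.left : Matrix ι ι F)
      = c • (1 : Matrix ι ι F) :=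
  hc_I_core h2 Q hQ hn hev g hg hgg hdet z hzG
    (fun e he hd => eig_scalar h2 Q hQ (by omega) g hg hgg z hz e he hd)

end Cfsg.Agent.Lib.Helper43.LBM
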